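import Mathlib

set_option autoImplicit false

namespace CfsgLib.Shintani

variable {X : Type*} [Group X] (σ : MulAut X)

/-- The norm of `a σ(a)⁻¹` telescopes. -/
theorem prod_range_twisted (a : X) : ∀ d : ℕ,
    ((List.range d).map (fun i => (σ ^ i) (a * (σ a)⁻¹))).prod = a * ((σ ^ d) a)⁻¹
  | 0 => by simp
  | d + 1 => by
    rw [List.range_succ, List.map_append, List.prod_append, prod_range_twisted a d, List.map_singleton,
      List.prod_singleton, map_mul, map_inv, show (σ ^ d) (σ a) = (σ ^ (d + 1)) a by rw [pow_succ, MulAut.mul_apply]]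
    group

theorem pow_fixed {x : X} (h : σ x = x) : ∀ e : ℕ, (σ ^ e) x = x
  | 0 => by simp
  | e + 1 => by rw [pow_succ, MulAut.mul_apply, h, pow_fixed h e]

theorem pow_comm (e : ℕ) (y : X) : (σ ^ e) (σ y) = σ ((σ ^ e) y) := by
  rw [← MulAut.mul_apply, ← MulAut.mul_apply, ← pow_succ, pow_succ']

theorem pow_comm' (e i : ℕ) (y : X) : (σ ^ e) ((σ ^ i) y) = (σ ^ i) ((σ ^ e) y) := by
  rw [← MulAut.mul_apply, ← MulAut.mul_apply, ← pow_add, ← pow_add, add_comm]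

/-- The Shintani element is fixed. -/
theorem fixed_of_fixed {e : ℕ} {g a : X} (hg : (σ ^ e) g = g) (ha : g = a * (σ a)⁻¹) :
    σ (((σ ^ e) a)⁻¹ * a) = ((σ ^ e) a)⁻¹ * a := by
  rw [ha, map_mul, map_inv, pow_comm] at hg
  rw [map_mul, map_inv]
  calc (σ ((σ ^ e) a))⁻¹ * σ a = ((σ ^ e) a)⁻¹ * ((σ ^ e) a * (σ ((σ ^ e) a))⁻¹) * σ a := by group
    _ = ((σ ^ e) a)⁻¹ * (a * (σ a)⁻¹) * σ a := by rw [hg]
    _ = _ := by group

theorem iterate_eq {e : ℕ} {a x : X} (hx : ((σ ^ e) a)⁻¹ * a = x) (hfix : σ x = x) : ∀ n : ℕ,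
    (((σ ^ e) ^ n) a) = a * (x ^ n)⁻¹
  | 0 => by simp
  | n + 1 => by
    rw [pow_succ' (σ ^ e) n, MulAut.mul_apply, iterate_eq hx hfix n, map_mul, map_inv, map_pow, pow_fixed σ hfix e,
      pow_succ x n, mul_inv_rev, show (σ ^ e) a = a * x⁻¹ by rw [← hx]; group, mul_assoc]

end CfsgLib.Shintani
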